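import Cfsg.Agent.H4.SLThree.SingerSpec
import Cfsg.Agent.H99.SingerElation.Main

/-!
Piece E of the maximality of the normaliser of a cubic field subalgebra in `SL₃`: an elation in an overgroup of
the Singer group gives transitivity on points and two centres on every axis.
-/

set_option autoImplicit false
set_option linter.unusedSectionVars false

namespace Cfsg.Agent.H99.SingerElation

open Matrix
open Cfsg.Agent.H4.SLThree.Singer (Facts singer HasEl IsScal ElationPiece PointTransitive TwoCentres)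

variable {F : Type*} [Field F]

/-- The coordinate vector of a functional. -/
def fvec (φ : (Fin 3 → F) →ₗ[F] F) : Fin 3 → F := fun i => φ (Pi.single i 1)

theorem fvec_dot (φ : (Fin 3 → F) →ₗ[F] F) (v : Fin 3 → F) : fvec φ ⬝ᵥ v = φ v := by
  conv_rhs => rw [pi_eq_sum_univ' v]
  simp [fvec, dotProduct, map_sum, mul_comm]

theorem fvec_ne_zero {φ : (Fin 3 → F) →ₗ[F] F} (h : φ ≠ 0) : fvec φ ≠ 0 := fun h0 =>
  h (LinearMap.ext fun v => by rw [← fvec_dot φ v, h0, zero_dotProduct, LinearMap.zero_apply])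

theorem ela_of_hasEl {M : Subgroup (GL (Fin 3) F)} {φ : (Fin 3 → F) →ₗ[F] F} {a : Fin 3 → F}
    (h : HasEl M φ a) : Ela M (fvec φ) a := by
  obtain ⟨ha, hm⟩ := h
  exact ⟨by rw [fvec_dot, ha], _, hm, rfl⟩

theorem hasEl_of_ela {M : Subgroup (GL (Fin 3) F)} {φ : (Fin 3 → F) →ₗ[F] F} {a : Fin 3 → F}
    (h : Ela M (fvec φ) a) : HasEl M φ a := by
  obtain ⟨ha, g, hg, e⟩ := h
  rw [fvec_dot] at ha
  refine ⟨ha, ?_⟩
  rwa [show H98.transGL φ a ha = g from Units.ext e.symm]

variable [Fintype F] {K : Subalgebra F (Matrix (Fin 3) (Fin 3) F)}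

/-- The scalar matrix of a unit. -/
def scalarHom : Fˣ →* GL (Fin 3) F :=
  Units.map (algebraMap F (Matrix (Fin 3) (Fin 3) F)).toMonoidHom

theorem scalarHom_val (c : Fˣ) :
    (scalarHom c : Matrix (Fin 3) (Fin 3) F) = (c : F) • (1 : Matrix (Fin 3) (Fin 3) F) :=
  Algebra.algebraMap_eq_smul_one _

/-- Scalars times the Singer group. -/
def prodHom (hK : Facts K) : Fˣ × ↥(singer K hK.inv_mem) →* GL (Fin 3) F where
  toFun p := scalarHom p.1 * p.2
  map_one' := by simp
  map_mul' p p' := Units.ext (by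
    simp only [Prod.fst_mul, Prod.snd_mul, map_mul, Subgroup.coe_mul, Units.val_mul, scalarHom_val, Matrix.smul_mul,
      Matrix.mul_smul, Matrix.one_mul, Matrix.mul_one, smul_smul, mul_comm])

theorem prodHom_val (hK : Facts K) (p : Fˣ × ↥(singer K hK.inv_mem)) :
    (prodHom hK p : Matrix (Fin 3) (Fin 3) F) = (p.1 : F) • ((p.2 : GL (Fin 3) F) : Matrix (Fin 3) (Fin 3) F) := by
  change ((scalarHom p.1 * p.2 : GL (Fin 3) F) : Matrix (Fin 3) (Fin 3) F) = _
  rw [Units.val_mul, scalarHom_val, Matrix.smul_mul, Matrix.one_mul]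

theorem mem_K_of_range (hK : Facts K) {g : GL (Fin 3) F} (hg : g ∈ (prodHom hK).range) :
    (g : Matrix (Fin 3) (Fin 3) F) ∈ K := by
  obtain ⟨p, rfl⟩ := hg
  rw [prodHom_val]
  exact K.smul_mem p.2.2.1 _

theorem one_of_fix (hK : Facts K) {g : GL (Fin 3) F} (hg : (g : Matrix (Fin 3) (Fin 3) F) ∈ K) {v : Fin 3 → F}
    (hv : v ≠ 0) (h : (g : Matrix (Fin 3) (Fin 3) F) *ᵥ v = v) : g = 1 :=
  Units.ext (sub_eq_zero.1 (hK.eq_zero_of_mulVec _ (K.sub_mem hg K.one_mem) v hv
    (by rw [sub_mulVec, h, Units.val_one, one_mulVec, sub_self])))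

theorem one_of_fix' (hK : Facts K) {g : GL (Fin 3) F} (hg : (g : Matrix (Fin 3) (Fin 3) F) ∈ K) {f : Fin 3 → F}
    (hf : f ≠ 0) (h : f ᵥ* (g : Matrix (Fin 3) (Fin 3) F) = f) : g = 1 := by
  have hdet : ((g : Matrix (Fin 3) (Fin 3) F) - 1).det = 0 :=
    Matrix.exists_vecMul_eq_zero_iff.1 ⟨f, hf, by rw [vecMul_sub, h, vecMul_one, sub_self]⟩
  obtain ⟨v, hv, hv'⟩ := Matrix.exists_mulVec_eq_zero_iff.2 hdet
  rw [sub_mulVec, one_mulVec, sub_eq_zero] at hv'
  exact one_of_fix hK hg hv hv'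

theorem card_eq_range_mul (hK : Facts K) :
    Nat.card (powMonoidHom 3 : Fˣ →* Fˣ).ker * Nat.card (prodHom hK).range =
      Fintype.card F ^ 3 - 1 := by
  have h1 := Subgroup.card_eq_card_quotient_mul_card_subgroup (prodHom hK).ker
  rw [Nat.card_congr (QuotientGroup.quotientKerEquivRange (prodHom hK)).toEquiv, Nat.card_prod, card_units_eq F,
    hK.card_singer] at h1
  have hker : Nat.card (prodHom hK).ker = Nat.card (powMonoidHom 3 : Fˣ →* Fˣ).ker := by
    have hdet : ∀ p ∈ (prodHom hK).ker, (p.1 : F) ^ 3 = 1 := fun p hp => by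
      have h := congrArg (fun g : GL (Fin 3) F => (g : Matrix (Fin 3) (Fin 3) F).det) (MonoidHom.mem_ker.1 hp)
      simp only [prodHom_val, det_smul, p.2.2.2, mul_one, Fintype.card_fin, Units.val_one, det_one] at h
      exact h
    refine Nat.card_eq_of_bijective (fun p => ⟨p.1.1, ?_⟩) ⟨fun p p' h => ?_, fun c => ?_⟩
    · exact MonoidHom.mem_ker.2 (Units.ext (by rw [powMonoidHom_apply, Units.val_pow_eq_pow_val, Units.val_one]
                                               exact hdet p.1 p.2))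
    · have e1 : p.1.1 = p'.1.1 := congrArg Subtype.val h
      refine Subtype.ext (Prod.ext e1 (Subtype.ext (mul_left_cancel (a := scalarHom p.1.1) ?_)))
      exact ((MonoidHom.mem_ker.1 p.2).trans (MonoidHom.mem_ker.1 p'.2).symm).trans
        (congrArg (fun c => scalarHom c * (p'.1.2 : GL (Fin 3) F)) e1.symm)
    · have hc : ((c : Fˣ) : F) ^ 3 = 1 := by
        rw [← Units.val_pow_eq_pow_val, ← powMonoidHom_apply, MonoidHom.mem_ker.1 c.2, Units.val_one]
      refine ⟨⟨(c.1, ⟨scalarHom c.1⁻¹, ?_, ?_⟩), MonoidHom.mem_ker.2 ?_⟩, Subtype.ext rfl⟩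
      · rw [scalarHom_val]; exact hK.scalar_mem _
      · rw [scalarHom_val, det_smul, det_one, mul_one, Fintype.card_fin, Units.val_inv_eq_inv_val, inv_pow, hc,
          inv_one]
      · change scalarHom c.1 * scalarHom c.1⁻¹ = 1
        rw [← map_mul, mul_inv_cancel, map_one]
  rw [← hker, mul_comm, ← h1]
  have h2 : 1 ≤ Fintype.card F := Fintype.card_pos
  obtain ⟨w, hw⟩ := Nat.exists_eq_add_of_le h2
  rw [hw, Nat.add_sub_cancel_left]
  have e : (1 + w) ^ 3 = w * ((1 + w) ^ 2 + (1 + w) + 1) + 1 := by ring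
  omega

/-- The covering group of an overgroup of the Singer group. -/
noncomputable def coverOf (hK : Facts K) {M : Subgroup (GL (Fin 3) F)} (hM : singer K hK.inv_mem ≤ M) : Cover M where
  G := (prodHom hK).range
  d := Nat.card (powMonoidHom 3 : Fˣ →* Fˣ).ker
  hd := by
    rw [IsCyclic.card_powMonoidHom_ker]
    exact (Nat.dvd_prime Nat.prime_three).1 (Nat.gcd_dvd_right _ _)
  d_dvd := by
    rw [IsCyclic.card_powMonoidHom_ker, card_units_eq F]
    exact Nat.gcd_dvd_left _ _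
  card := card_eq_range_mul hK
  scal c hc := ⟨prodHom hK (Units.mk0 c hc, 1), ⟨_, rfl⟩, by
    rw [prodHom_val, Subgroup.coe_one, Units.val_one, Units.val_mk0]⟩
  free g hg v hv h := one_of_fix hK (mem_K_of_range hK hg) hv h
  free' g hg f hf h := one_of_fix' hK (mem_K_of_range hK hg) hf h
  mem g hg := by
    obtain ⟨p, rfl⟩ := hg
    exact ⟨(p.1 : F)⁻¹, p.2, hM p.2.2, inv_ne_zero p.1.ne_zero, by
      rw [prodHom_val, smul_smul, inv_mul_cancel₀ p.1.ne_zero, one_smul]⟩

/-- An elation in an overgroup of the Singer group. -/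
theorem elationPiece {F : Type*} [Field F] [Fintype F] : ElationPiece (F := F) := by
  intro K hK M hM _ ⟨φ, a, hφ, ha, hEl⟩
  obtain ⟨p, hchar⟩ := CharP.exists F
  haveI : Fact p.Prime := ⟨CharP.char_is_prime F p⟩
  obtain ⟨h1, h2⟩ := transitive_two (p := p) (coverOf hK hM) hK.card_ne ha (fvec_ne_zero hφ) (ela_of_hasEl hEl)
  refine ⟨fun u v hu hv => h1 u v hu hv, fun ψ hψ => ?_⟩
  obtain ⟨b, b', hb, hne, e1, e2⟩ := h2 _ (fvec_ne_zero hψ)
  refine ⟨b, b', ?_, hasEl_of_ela e1, hasEl_of_ela e2⟩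
  rw [LinearIndependent.pair_iff' hb]
  exact fun c hc => hne c hc.symm

end Cfsg.Agent.H99.SingerElation
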