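import Cfsg.Agent.H4.SLThree.SingerSpec

/-!
Piece S of the maximality of the normaliser of a cubic field subalgebra in `SL₃`: a solvable overgroup of the
Singer group normalises the field.
-/

set_option autoImplicit false
set_option linter.unusedSectionVars false

namespace Cfsg.Agent.H99.SingerSolvable

open Matrix
open Cfsg.Agent.H4.SLThree.Singer (Facts singer IsScal SolvablePiece)

variable {F : Type*} [Field F]

local notation "Mat" => Matrix (Fin 3) (Fin 3) F

/-- A proper non-zero subspace stable under a matrix yields an eigenline of it, stable under its centraliser. -/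
theorem exists_common {a : Matrix (Fin 3) (Fin 3) F} (hns : ¬ IsScal a) {lam : F} {v₀ : Fin 3 → F} (hv₀ : v₀ ≠ 0)
    (hav : a *ᵥ v₀ = lam • v₀) :
    ∃ v : Fin 3 → F, v ≠ 0 ∧ ∀ x : Matrix (Fin 3) (Fin 3) F, x * a = a * x → ∃ e : F, x *ᵥ v = e • v := by
  set N : Matrix (Fin 3) (Fin 3) F := a - lam • 1 with hN
  set W := LinearMap.ker N.mulVecLin with hW
  set R := LinearMap.range N.mulVecLin with hR
  have hdim := LinearMap.finrank_range_add_finrank_ker N.mulVecLin
  rw [Module.finrank_fin_fun] at hdim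
  have hW0 : 1 ≤ Module.finrank F W := Submodule.one_le_finrank_iff.2 ((Submodule.ne_bot_iff _).2
    ⟨v₀, by simp [hW, hN, sub_mulVec, smul_mulVec, hav], hv₀⟩)
  have hR0 : 1 ≤ Module.finrank F R := Submodule.one_le_finrank_iff.2 fun h => hns ⟨lam, sub_eq_zero.1
    (Matrix.ext_of_mulVec_single fun i => by
      have : N.mulVecLin (Pi.single i 1) ∈ R := LinearMap.mem_range_self _ _
      rw [h, Submodule.mem_bot, Matrix.mulVecLin_apply] at this
      rw [this, zero_mulVec])⟩
  have key : ∀ U : Submodule F (Fin 3 → F), Module.finrank F U = 1 →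
      (∀ x : Matrix (Fin 3) (Fin 3) F, x * a = a * x → ∀ u ∈ U, x *ᵥ u ∈ U) →
      ∃ v : Fin 3 → F, v ≠ 0 ∧ ∀ x : Matrix (Fin 3) (Fin 3) F, x * a = a * x → ∃ e : F, x *ᵥ v = e • v := by
    intro U hU hinv
    obtain ⟨v, hv0, hv⟩ := finrank_eq_one_iff'.1 hU
    refine ⟨v.1, fun h => hv0 (Subtype.ext h), fun x hx => ?_⟩
    obtain ⟨e, he⟩ := hv ⟨x *ᵥ v.1, hinv x hx v v.2⟩
    exact ⟨e, (congrArg Subtype.val he).symm⟩
  have hcomm : ∀ x : Matrix (Fin 3) (Fin 3) F, x * a = a * x → x * N = N * x := fun x hx => by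
    rw [hN, Matrix.mul_sub, Matrix.sub_mul, hx, Matrix.mul_smul, Matrix.smul_mul, Matrix.mul_one, Matrix.one_mul]
  change Module.finrank F R + Module.finrank F W = 3 at hdim
  rcases (show Module.finrank F W = 1 ∨ Module.finrank F R = 1 by omega) with h | h
  · refine key W h fun x hx u hu => ?_
    rw [hW, LinearMap.mem_ker, Matrix.mulVecLin_apply] at hu ⊢
    rw [mulVec_mulVec, ← hcomm x hx, ← mulVec_mulVec, hu, mulVec_zero]
  · refine key R h fun x hx u hu => ?_
    obtain ⟨y, rfl⟩ := hu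
    exact ⟨x *ᵥ y, by rw [Matrix.mulVecLin_apply, Matrix.mulVecLin_apply, mulVec_mulVec, mulVec_mulVec, hcomm x hx]⟩

theorem all_eq (e : Fin 3 → F) (h0 : ∃ j, j ≠ 0 ∧ e j = e 0) (h1 : ∃ j, j ≠ 1 ∧ e j = e 1)
    (h2 : ∃ j, j ≠ 2 ∧ e j = e 2) (j : Fin 3) : e j = e 0 := by
  obtain ⟨a, ha, ha'⟩ := h0
  obtain ⟨b, hb, hb'⟩ := h1
  obtain ⟨c, hc, hc'⟩ := h2
  fin_cases a <;> fin_cases b <;> fin_cases c <;> fin_cases j <;> simp_all

open Classical in
/-- A domain has at most three roots of a monic cubic. -/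
theorem roots_bound {R S : Type*} [CommRing R] [IsDomain R] [Algebra F R] [Ring S] [Algebra F S] (φ : R →ₐ[F] S)
    (hφ : Function.Injective φ) (f : Fin 4 → R) (p : Polynomial F) (hp : p.Monic) (hdeg : p.natDegree ≤ 3)
    (hr : ∀ i, Polynomial.aeval (φ (f i)) p = 0) : ∃ i l : Fin 4, i ≠ l ∧ f i = f l := by
  by_contra hno
  push Not at hno
  have hpmap : p.map (algebraMap F R) ≠ 0 := (hp.map _).ne_zero
  have hsub : Finset.univ.image f ⊆ (p.map (algebraMap F R)).roots.toFinset := fun x hx => by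
    obtain ⟨i, -, rfl⟩ := Finset.mem_image.1 hx
    rw [Multiset.mem_toFinset, Polynomial.mem_roots hpmap, Polynomial.IsRoot, Polynomial.eval_map,
      ← Polynomial.aeval_def]
    exact hφ (by rw [← Polynomial.aeval_algHom_apply, hr i, map_zero])
  have h1 := Finset.card_le_card hsub
  rw [Finset.card_image_of_injective _ fun i l h => by_contra fun hne => hno i l hne h, Finset.card_univ,
    Fintype.card_fin] at h1
  have h2 := (p.map (algebraMap F R)).card_roots'
  have h3 := Multiset.toFinset_card_le (p.map (algebraMap F R)).roots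
  have h4 := Polynomial.natDegree_map_le (p := p) (f := algebraMap F R)
  omega

/-- Four roots of a cubic in a commutative subalgebra of invertible matrices are not different. -/
theorem roots_subalgebra (R : Subalgebra F (Matrix (Fin 3) (Fin 3) F)) (hc : ∀ x ∈ R, ∀ y ∈ R, x * y = y * x)
    (hunit : ∀ x ∈ R, x ≠ 0 → IsUnit x.det) (f : Fin 4 → Matrix (Fin 3) (Fin 3) F) (hf : ∀ i, f i ∈ R)
    (p : Polynomial F) (hp : p.Monic) (hdeg : p.natDegree ≤ 3) (hr : ∀ i, Polynomial.aeval (f i) p = 0) :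
    ∃ i l : Fin 4, i ≠ l ∧ f i = f l := by
  letI : CommRing R :=
    { (inferInstance : Ring R) with mul_comm := fun x y => Subtype.ext (hc x x.2 y y.2) }
  haveI : NoZeroDivisors R := ⟨fun {x y} hxy => by
    by_cases hx : x = 0
    · exact Or.inl hx
    · refine Or.inr (Subtype.ext ?_)
      have h1 : (x : Matrix (Fin 3) (Fin 3) F) * (y : Matrix (Fin 3) (Fin 3) F) = 0 := congrArg Subtype.val hxy
      have := congrArg ((x : Matrix (Fin 3) (Fin 3) F)⁻¹ * ·) h1
      simpa [← Matrix.mul_assoc, Matrix.nonsing_inv_mul _ (hunit x x.2 fun h => hx (Subtype.ext h))] using this⟩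
  haveI : IsDomain R := NoZeroDivisors.to_isDomain R
  obtain ⟨i, l, hne, hil⟩ :=
    roots_bound R.val Subtype.val_injective (fun i => (⟨f i, hf i⟩ : R)) p hp hdeg hr
  exact ⟨i, l, hne, congrArg Subtype.val hil⟩

variable {K : Subalgebra F (Matrix (Fin 3) (Fin 3) F)}

/-- The conjugate of `a` by the `i`th power of `k`. -/
def cj (k : GL (Fin 3) F) (a : Matrix (Fin 3) (Fin 3) F) (i : ℕ) : Matrix (Fin 3) (Fin 3) F :=
  ((k ^ i : GL (Fin 3) F) : Matrix (Fin 3) (Fin 3) F) * a *
    (((k ^ i)⁻¹ : GL (Fin 3) F) : Matrix (Fin 3) (Fin 3) F)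

theorem cj_zero (k : GL (Fin 3) F) (a : Matrix (Fin 3) (Fin 3) F) : cj k a 0 = a := by simp [cj]

theorem cj_mul_pow (k : GL (Fin 3) F) (a : Matrix (Fin 3) (Fin 3) F) (i : ℕ) :
    cj k a i * ((k ^ i : GL (Fin 3) F) : Matrix (Fin 3) (Fin 3) F) =
      ((k ^ i : GL (Fin 3) F) : Matrix (Fin 3) (Fin 3) F) * a := by
  rw [cj, Matrix.mul_assoc, ← Units.val_mul, inv_mul_cancel, Units.val_one, Matrix.mul_one]

theorem cj_add (k : GL (Fin 3) F) (a : Matrix (Fin 3) (Fin 3) F) (i j : ℕ) :
    cj k a (i + j) = cj k (cj k a j) i := by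
  simp only [cj, pow_add, _root_.mul_inv_rev, Units.val_mul, Matrix.mul_assoc]

theorem cj_inj (k : GL (Fin 3) F) {a b : Matrix (Fin 3) (Fin 3) F} {i : ℕ} (h : cj k a i = cj k b i) : a = b := by
  have ha := cj_mul_pow k a i
  rw [h, cj_mul_pow k b i] at ha
  have := congrArg ((((k ^ i)⁻¹ : GL (Fin 3) F) : Matrix (Fin 3) (Fin 3) F) * ·) ha
  simp only [← Matrix.mul_assoc, ← Units.val_mul, inv_mul_cancel, Units.val_one, Matrix.one_mul] at this
  exact this.symm

variable [Fintype F]

/-- A power fixed element lies in the field. -/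
theorem mem_of_fixed (hK : Facts K) {k : GL (Fin 3) F} (hk : k ∈ singer K hK.inv_mem)
    (hkns : ¬ IsScal (k : Matrix (Fin 3) (Fin 3) F)) {a : Matrix (Fin 3) (Fin 3) F} {j : ℕ} (hj : j ∣ 720)
    (h : cj k a j = a) : a ∈ K := by
  have e := cj_mul_pow k a j
  rw [h] at e
  exact hK.cent _ ((singer K hK.inv_mem).pow_mem hk j).1 (fun hs => hkns (hK.scalar_of_pow k hk j hj hs)) a e

set_option maxHeartbeats 1000000 in
open Classical in
/-- A non-scalar element with commuting conjugates forces the normaliser. -/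
theorem le_norm_of_comm (hK : Facts K) {M : Subgroup (GL (Fin 3) F)} {k : GL (Fin 3) F}
    (hk : k ∈ singer K hK.inv_mem) (hkM : k ∈ M) (hkns : ¬ IsScal (k : Matrix (Fin 3) (Fin 3) F))
    {a : GL (Fin 3) F} (hans : ¬ IsScal (a : Matrix (Fin 3) (Fin 3) F))
    (hcomm : ∀ g ∈ M, ∀ h ∈ M, Commute (g * a * g⁻¹) (h * a * h⁻¹)) :
    M ≤ Cfsg.Geo.subalgebraNormalizer K := by
  set A := (a : Matrix (Fin 3) (Fin 3) F) with hA
  have hcjval : ∀ i, cj k A i = ((k ^ i * a * (k ^ i)⁻¹ : GL (Fin 3) F) : Matrix (Fin 3) (Fin 3) F) := fun i => by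
    simp [cj, hA]
  have hcc : ∀ i l, cj k A i * cj k A l = cj k A l * cj k A i := fun i l => by
    rw [hcjval, hcjval, ← Units.val_mul, ← Units.val_mul,
      (hcomm _ (M.pow_mem hkM i) _ (M.pow_mem hkM l)).eq]
  have hfin : A ∈ K → M ≤ Cfsg.Geo.subalgebraNormalizer K := fun haK g hg => by
    refine hK.norm g A haK hans (hK.cent A haK hans _ ?_)
    have := congrArg Units.val (hcomm g hg 1 M.one_mem).eq
    simpa [hA, Matrix.mul_assoc] using this
  by_cases heig : ∃ (lam : F) (v : Fin 3 → F), v ≠ 0 ∧ A *ᵥ v = lam • v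
  · exfalso
    obtain ⟨lam, v₀, hv₀, hav⟩ := heig
    obtain ⟨v, hv, hcv⟩ := exists_common hans hv₀ hav
    -- all images of the common eigenvector are eigenvectors
    have heigv : ∀ l, ∃ e : F, A *ᵥ (((k ^ l : GL (Fin 3) F) : Matrix (Fin 3) (Fin 3) F) *ᵥ v) =
        e • (((k ^ l : GL (Fin 3) F) : Matrix (Fin 3) (Fin 3) F) *ᵥ v) := by
      intro l
      obtain ⟨e, he⟩ := hcv (((k ^ l)⁻¹ * a * (k ^ l) : GL (Fin 3) F) : Matrix (Fin 3) (Fin 3) F) (by
        have := congrArg Units.val (hcomm _ (M.inv_mem (M.pow_mem hkM l)) 1 M.one_mem).eq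
        simpa [hA, Matrix.mul_assoc] using this)
      refine ⟨e, ?_⟩
      have := congrArg (((k ^ l : GL (Fin 3) F) : Matrix (Fin 3) (Fin 3) F) *ᵥ ·) he
      simp only [mulVec_mulVec, mulVec_smul] at this
      rw [← Units.val_mul, show k ^ l * ((k ^ l)⁻¹ * a * k ^ l) = a * k ^ l by group, Units.val_mul] at this
      rw [mulVec_mulVec]
      exact this
    -- they span
    set S := Submodule.span F (Set.range fun l : ℕ => ((k ^ l : GL (Fin 3) F) : Matrix (Fin 3) (Fin 3) F) *ᵥ v) with hS
    have hStop : S = ⊤ := by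
      refine (hK.irred _ hk.1 hkns S fun w hw => ?_).resolve_left fun h0 => hv ?_
      · induction hw using Submodule.span_induction with
        | mem w hw =>
          obtain ⟨l, rfl⟩ := hw
          exact Submodule.subset_span ⟨l + 1, by simp [pow_succ', mulVec_mulVec]⟩
        | zero => rw [mulVec_zero]; exact Submodule.zero_mem _
        | add x y _ _ hx hy => rw [mulVec_add]; exact Submodule.add_mem _ hx hy
        | smul c x _ hx => rw [mulVec_smul]; exact Submodule.smul_mem _ c hx
      · exact (Submodule.eq_bot_iff _).1 h0 v (Submodule.subset_span ⟨0, by simp⟩)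
    -- a basis of eigenvectors
    obtain ⟨b, hb⟩ : ∃ b : Module.Basis (Fin 3) F (Fin 3 → F), ∀ i, ∃ e : F, A *ᵥ b i = e • b i := by
      obtain ⟨t, ht, hts, htli⟩ := exists_linearIndependent F
        (Set.range fun l : ℕ => ((k ^ l : GL (Fin 3) F) : Matrix (Fin 3) (Fin 3) F) *ᵥ v)
      let b₀ : Module.Basis t F (Fin 3 → F) := Module.Basis.mk htli (by rw [Subtype.range_coe, hts, ← hS, hStop])
      haveI := Module.Finite.finite_basis b₀
      cases nonempty_fintype t
      have hc : Fintype.card t = 3 := by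
        rw [← Module.finrank_eq_card_basis b₀, Module.finrank_fin_fun]
      refine ⟨b₀.reindex (Fintype.equivFinOfCardEq hc), fun i => ?_⟩
      rw [Module.Basis.reindex_apply, Module.Basis.mk_apply]
      obtain ⟨l, hl⟩ := ht ((Fintype.equivFinOfCardEq hc).symm i).2
      obtain ⟨e, he⟩ := heigv l
      exact ⟨e, by rw [← hl]; exact he⟩
    choose e he using hb
    have hdecomp : ∀ x : Fin 3 → F, A *ᵥ x = ∑ i, (b.repr x i * e i) • b i := fun x => by
      conv_lhs => rw [← b.sum_repr x]
      rw [mulVec_sum]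
      exact Finset.sum_congr rfl fun i _ => by rw [mulVec_smul, he, smul_smul]
    -- a simple eigenvalue
    obtain ⟨i0, hi0⟩ : ∃ i0, ∀ j, j ≠ i0 → e j ≠ e i0 := by
      by_contra hc
      push Not at hc
      obtain ⟨j0, hj0, h0⟩ := hc 0
      obtain ⟨j1, hj1, h1⟩ := hc 1
      obtain ⟨j2, hj2, h2⟩ := hc 2
      refine hans ⟨e 0, Matrix.ext_of_mulVec_single fun i => ?_⟩
      have hall : ∀ j, e j = e 0 := all_eq e ⟨j0, hj0, h0⟩ ⟨j1, hj1, h1⟩ ⟨j2, hj2, h2⟩
      rw [hdecomp, smul_mulVec, one_mulVec]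
      conv_rhs => rw [← b.sum_repr (Pi.single i 1), Finset.smul_sum]
      exact Finset.sum_congr rfl fun j _ => by rw [hall, smul_smul, mul_comm]
    set w := b i0 with hw
    set lam := e i0 with hlam
    have hw0 : w ≠ 0 := b.ne_zero i0
    have hline : ∀ x, A *ᵥ x = lam • x → ∃ c : F, x = c • w := by
      intro x hx
      refine ⟨b.repr x i0, ?_⟩
      have hz : ∀ j, j ≠ i0 → b.repr x j = 0 := by
        intro j hj
        have h1 := congrArg (fun y => b.repr y j) ((hdecomp x).symm.trans hx)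
        simp only [b.repr_sum_self, map_smul, Finsupp.smul_apply, smul_eq_mul] at h1
        by_contra hne
        exact hi0 j hj (mul_left_cancel₀ hne (h1.trans (mul_comm _ _)))
      conv_lhs => rw [← b.sum_repr x, Finset.sum_eq_single i0 (fun j _ hj => by rw [hz j hj, zero_smul])
        (fun h => absurd (Finset.mem_univ i0) h)]
    set u : Fin 4 → (Fin 3 → F) := fun i => ((k ^ (i : ℕ) : GL (Fin 3) F) : Matrix (Fin 3) (Fin 3) F) *ᵥ w with hu
    have hline' : ∀ (i : Fin 4) (x : Fin 3 → F), cj k A i *ᵥ x = lam • x → ∃ c : F, x = c • u i := by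
      intro i x hx
      obtain ⟨c, hc⟩ := hline ((((k ^ (i : ℕ))⁻¹ : GL (Fin 3) F) : Matrix (Fin 3) (Fin 3) F) *ᵥ x) (by
        have := congrArg ((((k ^ (i : ℕ))⁻¹ : GL (Fin 3) F) : Matrix (Fin 3) (Fin 3) F) *ᵥ ·) hx
        simp only [cj, mulVec_mulVec, mulVec_smul, ← Matrix.mul_assoc, ← Units.val_mul, inv_mul_cancel,
          Units.val_one, Matrix.one_mul] at this
        rwa [mulVec_mulVec])
      refine ⟨c, ?_⟩
      have := congrArg (((k ^ (i : ℕ) : GL (Fin 3) F) : Matrix (Fin 3) (Fin 3) F) *ᵥ ·) hc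
      simpa [hu, mulVec_mulVec, mulVec_smul, ← Units.val_mul] using this
    have hself : ∀ i : Fin 4, cj k A i *ᵥ u i = lam • u i := fun i => by
      rw [hu, mulVec_mulVec, cj_mul_pow, ← mulVec_mulVec, he, mulVec_smul]
    have heu : ∀ i l : Fin 4, ∃ μ : F, cj k A i *ᵥ u l = μ • u l := fun i l => by
      obtain ⟨μ, hμ⟩ := hline' l (cj k A i *ᵥ u l) (by
        rw [mulVec_mulVec, ← hcc, ← mulVec_mulVec, hself, mulVec_smul])
      exact ⟨μ, hμ⟩
    choose μ hμ using heu
    have hrep : ∃ i l : Fin 4, (i : ℕ) < l ∧ ∃ c : F, u l = c • u i := by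
      by_contra hno
      push Not at hno
      have hμne : ∀ i l, i ≠ l → μ i l ≠ lam := by
        intro i l hil heq
        obtain ⟨c, hc⟩ := hline' i (u l) (by rw [hμ, heq])
        rcases lt_or_gt_of_ne (Fin.val_ne_of_ne hil) with h | h
        · exact hno i l h c hc
        · have hc0 : c ≠ 0 := fun h0 => (Matrix.mulVec_injective_of_isUnit (k ^ (l : ℕ)).isUnit).ne hw0
            (by rw [mulVec_zero]; exact hc.trans (by rw [h0, zero_smul]))
          exact hno l i h c⁻¹ (by rw [hc, smul_smul, inv_mul_cancel₀ hc0, one_smul])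
      have hli : LinearIndependent F u := by
        rw [Fintype.linearIndependent_iff]
        intro g hg j
        have step : ∀ (s : Finset (Fin 4)), j ∉ s →
            ∃ coef : Fin 4 → F, coef j ≠ 0 ∧ (∀ l ∈ s, coef l = 0) ∧ ∑ l, (g l * coef l) • u l = 0 := by
          intro s
          induction s using Finset.induction with
          | empty => exact fun _ => ⟨1, by simp, by simp, by simpa using hg⟩
          | insert i s hi ih =>
            intro hjs
            rw [Finset.mem_insert, not_or] at hjs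
            obtain ⟨coef, h1, h2, h3⟩ := ih hjs.2
            refine ⟨fun l => coef l * (μ i l - μ i i), mul_ne_zero h1 (sub_ne_zero.2 ?_), ?_, ?_⟩
            · have : μ i i = lam := smul_left_injective F
                ((Matrix.mulVec_injective_of_isUnit (k ^ (i : ℕ)).isUnit).ne hw0 |> fun h => by
                  rw [mulVec_zero] at h; exact h) ((hμ i i).symm.trans (hself i))
              rw [this]
              exact hμne i j (Ne.symm hjs.1)
            · intro l hl
              rcases Finset.mem_insert.1 hl with rfl | hl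
              · simp
              · simp [h2 l hl]
            · have h4 := congrArg (fun x => cj k A i *ᵥ x - μ i i • x) h3
              simp only [mulVec_sum, mulVec_smul, hμ, Finset.smul_sum, ← Finset.sum_sub_distrib, mulVec_zero,
                smul_zero, sub_self] at h4
              rw [← h4]
              refine Finset.sum_congr rfl fun l _ => ?_
              module
        obtain ⟨coef, h1, h2, h3⟩ := step (Finset.univ.erase j) (Finset.notMem_erase _ _)
        rw [Finset.sum_eq_single j (fun l _ hl => by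
          rw [h2 l (Finset.mem_erase.2 ⟨hl, Finset.mem_univ l⟩), mul_zero, zero_smul])
          (fun h => absurd (Finset.mem_univ j) h), smul_eq_zero, mul_eq_zero] at h3
        refine (h3.resolve_right ?_).resolve_right h1
        intro h
        exact (Matrix.mulVec_injective_of_isUnit (k ^ (j : ℕ)).isUnit).ne hw0 (by rw [mulVec_zero]; exact h)
      have := hli.fintype_card_le_finrank
      rw [Module.finrank_fin_fun, Fintype.card_fin] at this
      omega
    obtain ⟨i, l, hil, c, hc⟩ := hrep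
    have hd : ((k ^ ((l : ℕ) - i) : GL (Fin 3) F) : Matrix (Fin 3) (Fin 3) F) *ᵥ w = c • w := by
      apply Matrix.mulVec_injective_of_isUnit (k ^ (i : ℕ)).isUnit
      rw [mulVec_smul, mulVec_mulVec, ← Units.val_mul, ← pow_add, Nat.add_sub_cancel' hil.le]
      exact hc
    have hdiv : ((l : ℕ) - i) ∣ 720 := by
      have : (l : ℕ) - i ∈ ({1, 2, 3} : Finset ℕ) := by
        have := l.isLt; simp; omega
      simp at this
      rcases this with h | h | h <;> rw [h] <;> norm_num
    have hirr := hK.irred _ ((singer K hK.inv_mem).pow_mem hk _).1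
      (fun hs => hkns (hK.scalar_of_pow k hk _ hdiv hs)) (Submodule.span F {w}) (fun x hx => by
        obtain ⟨t, rfl⟩ := Submodule.mem_span_singleton.1 hx
        rw [mulVec_smul, hd]
        exact Submodule.smul_mem _ _ (Submodule.smul_mem _ _ (Submodule.mem_span_singleton_self w)))
    rcases hirr with h | h
    · exact hw0 (Submodule.span_singleton_eq_bot.1 h)
    · have := finrank_span_singleton (K := F) hw0
      rw [h, finrank_top, Module.finrank_fin_fun] at this
      omega
  · push Not at heig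
    set R := Algebra.adjoin F (Set.range fun i => cj k A i) with hR
    have hAcomm : ∀ x ∈ R, x * A = A * x := fun x hx => by
      have : R ≤ Subalgebra.centralizer F {A} := Algebra.adjoin_le (by
        rintro _ ⟨i, rfl⟩
        rw [SetLike.mem_coe, Subalgebra.mem_centralizer_iff]
        intro g hg
        rw [Set.mem_singleton_iff.1 hg]
        have := hcc 0 i
        rwa [cj_zero] at this)
      exact ((Subalgebra.mem_centralizer_iff F).1 (this hx) A rfl).symm
    have hunit : ∀ x ∈ R, x ≠ 0 → IsUnit x.det := by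
      intro x hx hx0
      rw [isUnit_iff_ne_zero]
      intro hdet
      obtain ⟨v, hv, hxv⟩ := Matrix.exists_mulVec_eq_zero_iff.2 hdet
      have hxns : ¬ IsScal x := fun ⟨c, hc⟩ => by
        rw [hc, smul_mulVec, one_mulVec, smul_eq_zero] at hxv
        exact hx0 (by rw [hc, hxv.resolve_right hv, zero_smul])
      obtain ⟨w, hw, hw'⟩ := exists_common hxns hv (lam := 0) (by rw [hxv, zero_smul])
      obtain ⟨e, he⟩ := hw' A (hAcomm x hx).symm
      exact heig e w hw he
    have hgen : ∀ i, cj k A i ∈ R := fun i => Algebra.subset_adjoin ⟨i, rfl⟩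
    have hRc : R ≤ Subalgebra.centralizer F (R : Set (Matrix (Fin 3) (Fin 3) F)) := Algebra.adjoin_le (by
      rintro _ ⟨i, rfl⟩
      rw [SetLike.mem_coe, Subalgebra.mem_centralizer_iff]
      intro g hg
      have : R ≤ Subalgebra.centralizer F {cj k A i} := Algebra.adjoin_le (by
        rintro _ ⟨l, rfl⟩
        rw [SetLike.mem_coe, Subalgebra.mem_centralizer_iff]
        intro x hx
        rw [Set.mem_singleton_iff.1 hx]
        exact hcc i l)
      exact ((Subalgebra.mem_centralizer_iff F).1 (this hg) _ rfl).symm)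
    obtain ⟨i, l, hne, hil⟩ : ∃ i l : Fin 4, i ≠ l ∧ cj k A (i : ℕ) = cj k A (l : ℕ) :=
      roots_subalgebra R (fun x hx y hy => (Subalgebra.mem_centralizer_iff F).1 (hRc hy) x hx) hunit
        (fun i : Fin 4 => cj k A i) (fun i => hgen i) A.charpoly (Matrix.charpoly_monic A)
        (by rw [Matrix.charpoly_natDegree_eq_dim, Fintype.card_fin]) fun i => by
          have hch : A.charpoly = (cj k A i).charpoly := by
            rw [cj, Matrix.coe_units_inv, Matrix.charpoly_units_conj]
          rw [hch]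
          exact Matrix.aeval_self_charpoly _
    have hfix : ∃ j : ℕ, j ∣ 720 ∧ cj k A j = A := by
      have main : ∀ i l : Fin 4, (i : ℕ) < l → cj k A (i : ℕ) = cj k A (l : ℕ) → ∃ j : ℕ, j ∣ 720 ∧ cj k A j = A := by
        intro i l hlt h
        refine ⟨l - i, ?_, ?_⟩
        · have : (l : ℕ) - i ∈ ({1, 2, 3} : Finset ℕ) := by
            have := l.isLt; simp; omega
          simp at this
          rcases this with h | h | h <;> rw [h] <;> norm_num
        · refine (cj_inj k (i := (i : ℕ)) ?_).symm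
          rw [← cj_add, Nat.add_sub_cancel' hlt.le]
          exact h
      rcases lt_or_gt_of_ne (Fin.val_ne_of_ne hne) with h | h
      exacts [main i l h hil, main l i h hil.symm]
    obtain ⟨j, hj, hjA⟩ := hfix
    exact hfin (mem_of_fixed hK hk hkns hj hjA)

/-- The scalar elements. -/
def scalG : Subgroup (GL (Fin 3) F) where
  carrier := {g | IsScal (g : Matrix (Fin 3) (Fin 3) F)}
  one_mem' := ⟨1, by rw [Units.val_one, one_smul]⟩
  mul_mem' := by
    rintro g h ⟨c, hc⟩ ⟨d, hd⟩
    exact ⟨c * d, by rw [Units.val_mul, hc, hd, Matrix.smul_mul, Matrix.mul_smul, Matrix.one_mul, smul_smul]⟩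
  inv_mem' := by
    rintro g ⟨c, hc⟩
    refine ⟨c⁻¹, ?_⟩
    have hc0 : c ≠ 0 := fun h => g.ne_zero (by rw [hc, h, zero_smul])
    exact Units.inv_eq_of_mul_eq_one_right
      (by rw [hc, Matrix.smul_mul, Matrix.one_mul, smul_smul, mul_inv_cancel₀ hc0, one_smul])

theorem scalG_comm {z : GL (Fin 3) F} (hz : z ∈ scalG) (g : GL (Fin 3) F) : Commute z g := by
  obtain ⟨c, hc⟩ := hz
  refine Units.ext ?_
  rw [Units.val_mul, Units.val_mul, hc, Matrix.smul_mul, Matrix.one_mul, Matrix.mul_smul, Matrix.mul_one]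

theorem scalG_cube {z : GL (Fin 3) F} (hz : z ∈ scalG) (hd : (z : Matrix (Fin 3) (Fin 3) F).det = 1) : z ^ 3 = 1 := by
  obtain ⟨c, hc⟩ := hz
  rw [hc, det_smul, det_one, mul_one, Fintype.card_fin] at hd
  refine Units.ext ?_
  rw [Units.val_pow_eq_pow_val, hc, smul_pow, one_pow, hd, one_smul, Units.val_one]

theorem det_of_sl {g : GL (Fin 3) F} (hg : g ∈ Cfsg.Geo.specialLinear (Fin 3) F) :
    (g : Matrix (Fin 3) (Fin 3) F).det = 1 := congrArg Units.val (MonoidHom.mem_ker.mp hg)

/-- A non-scalar element of the Singer group. -/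
theorem exists_nonscalar (hK : Facts K) :
    ∃ k ∈ singer K hK.inv_mem, ¬ IsScal (k : Matrix (Fin 3) (Fin 3) F) := by
  classical
  by_contra hno
  push Not at hno
  choose c hc using fun g : singer K hK.inv_mem => hno g.1 g.2
  have hinj : Function.Injective fun g : singer K hK.inv_mem =>
      (⟨c g, by
        have := g.2.2
        rw [hc g, det_smul, det_one, mul_one, Fintype.card_fin] at this
        exact Multiset.mem_toFinset.2 ((Polynomial.mem_nthRoots (by norm_num)).2 this)⟩ :
        ↥(Polynomial.nthRoots 3 (1 : F)).toFinset) := fun g g' h =>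
    Subtype.ext (Units.ext (by rw [hc g, hc g', show c g = c g' from congrArg Subtype.val h]))
  have h1 := Nat.card_le_card_of_injective _ hinj
  rw [hK.card_singer, Nat.card_eq_finsetCard] at h1
  have h2 := Multiset.toFinset_card_le (Polynomial.nthRoots 3 (1 : F))
  have h3 := Polynomial.card_nthRoots 3 (1 : F)
  have : 2 ≤ Fintype.card F := Fintype.one_lt_card
  nlinarith

/-- Pairwise different classes modulo scalars are linearly independent. -/
theorem indep_classes {R : Subgroup (GL (Fin 3) F)} (hRR : ∀ x ∈ R, ∀ y ∈ R, x * y * x⁻¹ * y⁻¹ ∈ scalG)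
    (hZ : ∀ x ∈ R, (∀ y ∈ R, Commute x y) → x ∈ scalG) {ι : Type} [Fintype ι] (y : ι → GL (Fin 3) F)
    (hy : ∀ i, y i ∈ R) (hne : ∀ i j, i ≠ j → (y i)⁻¹ * y j ∉ scalG) :
    LinearIndependent F fun i => ((y i : GL (Fin 3) F) : Matrix (Fin 3) (Fin 3) F) := by
  have hchi : ∀ i, ∀ r : R, ∃ c : F, (((r : GL (Fin 3) F) * y i * (r : GL (Fin 3) F)⁻¹ : GL (Fin 3) F) : Matrix (Fin 3) (Fin 3) F) =
      c • (y i : Matrix (Fin 3) (Fin 3) F) := fun i r => by
    obtain ⟨c, hc⟩ := hRR r r.2 (y i) (hy i)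
    refine ⟨c, ?_⟩
    rw [show (r : GL (Fin 3) F) * y i * (r : GL (Fin 3) F)⁻¹ = r * y i * (r : GL (Fin 3) F)⁻¹ * (y i)⁻¹ * y i by
      group, Units.val_mul, hc, Matrix.smul_mul, Matrix.one_mul]
  choose c hc using hchi
  have uniq : ∀ i (s t : F), s • (y i : Matrix (Fin 3) (Fin 3) F) = t • (y i : Matrix (Fin 3) (Fin 3) F) → s = t :=
    fun i s t h => smul_left_injective F (y i).ne_zero h
  let χ : ι → (R →* F) := fun i =>
    { toFun := c i
      map_one' := uniq i _ _ (by rw [one_smul, ← hc]; simp)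
      map_mul' := fun r s => uniq i _ _ (by
        have hs := hc i s
        have hr := hc i r
        rw [← hc]
        simp only [Subgroup.coe_mul, _root_.mul_inv_rev, Units.val_mul] at hs hr ⊢
        calc (_ : Matrix (Fin 3) (Fin 3) F) = ((r : GL (Fin 3) F) : Matrix (Fin 3) (Fin 3) F) *
              (((s : GL (Fin 3) F) : Matrix (Fin 3) (Fin 3) F) * (y i : Matrix (Fin 3) (Fin 3) F) *
                (((s : GL (Fin 3) F)⁻¹ : GL (Fin 3) F) : Matrix (Fin 3) (Fin 3) F)) *
              (((r : GL (Fin 3) F)⁻¹ : GL (Fin 3) F) : Matrix (Fin 3) (Fin 3) F) := by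
              simp only [Matrix.mul_assoc]
          _ = _ := by rw [hs, Matrix.mul_smul, Matrix.smul_mul, hr, smul_smul, mul_comm]) }
  have hinj : Function.Injective χ := by
    intro i j hij
    by_contra hne'
    refine hne i j hne' (hZ _ (R.mul_mem (R.inv_mem (hy i)) (hy j)) fun r hr => ?_)
    have e : c i ⟨r, hr⟩ = c j ⟨r, hr⟩ := DFunLike.congr_fun hij ⟨r, hr⟩
    have hc0 : c i ⟨r, hr⟩ ≠ 0 := fun h0 => (r * y i * r⁻¹).ne_zero (by
      have := hc i ⟨r, hr⟩
      rw [h0, zero_smul] at this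
      exact this)
    have h1 : ((y i : GL (Fin 3) F) : Matrix (Fin 3) (Fin 3) F) *
        (((r * y i * r⁻¹)⁻¹ * (r * y j * r⁻¹) : GL (Fin 3) F) : Matrix (Fin 3) (Fin 3) F) =
          (y j : Matrix (Fin 3) (Fin 3) F) := by
      have hinv : (((r * y i * r⁻¹)⁻¹ : GL (Fin 3) F) : Matrix (Fin 3) (Fin 3) F) =
          (c i ⟨r, hr⟩)⁻¹ • (((y i)⁻¹ : GL (Fin 3) F) : Matrix (Fin 3) (Fin 3) F) :=
        Units.inv_eq_of_mul_eq_one_right (by
          rw [hc i ⟨r, hr⟩, Matrix.smul_mul, Matrix.mul_smul, smul_smul, mul_inv_cancel₀ hc0, one_smul,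
            ← Units.val_mul, mul_inv_cancel, Units.val_one])
      rw [Units.val_mul, hinv, hc j ⟨r, hr⟩, ← e]
      simp only [Matrix.smul_mul, Matrix.mul_smul, smul_smul]
      rw [mul_inv_cancel₀ hc0, one_smul, ← Matrix.mul_assoc, ← Units.val_mul, mul_inv_cancel, Units.val_one,
        Matrix.one_mul]
    have h2 : y i * ((r * y i * r⁻¹)⁻¹ * (r * y j * r⁻¹)) = y j := Units.ext (by rw [Units.val_mul]; exact h1)
    have h3 : r * ((y i)⁻¹ * y j) * r⁻¹ = (y i)⁻¹ * y j := by
      calc r * ((y i)⁻¹ * y j) * r⁻¹ = (y i)⁻¹ * (y i * ((r * y i * r⁻¹)⁻¹ * (r * y j * r⁻¹))) := by group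
        _ = _ := by rw [h2]
    exact (mul_inv_eq_iff_eq_mul.1 h3).symm
  rw [Fintype.linearIndependent_iff]
  intro g hg i
  have hsum : ∀ r : R, ∑ l, (g l * c l r) • (y l : Matrix (Fin 3) (Fin 3) F) = 0 := fun r => by
    have := congrArg (fun X => ((r : GL (Fin 3) F) : Matrix (Fin 3) (Fin 3) F) * X *
      (((r : GL (Fin 3) F)⁻¹ : GL (Fin 3) F) : Matrix (Fin 3) (Fin 3) F)) hg
    simp only [Matrix.mul_sum, Matrix.sum_mul, Matrix.mul_smul, Matrix.smul_mul, Matrix.mul_zero,
      Matrix.zero_mul] at this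
    rw [← this]
    refine Finset.sum_congr rfl fun l _ => ?_
    rw [mul_smul, ← hc, Units.val_mul, Units.val_mul]
  by_contra hgi
  refine (y i).ne_zero (Matrix.ext fun s t => ?_)
  have hli := (linearIndependent_monoidHom R F).comp χ hinj
  rw [Fintype.linearIndependent_iff] at hli
  have := hli (fun l => g l * (y l : Matrix (Fin 3) (Fin 3) F) s t) (funext fun r => by
    have := congrFun (congrFun (hsum r) s) t
    simp only [Matrix.sum_apply, Matrix.smul_apply, smul_eq_mul, Matrix.zero_apply] at this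
    simp only [Finset.sum_apply, Pi.smul_apply, smul_eq_mul, Function.comp_apply, Pi.zero_apply]
    refine Eq.trans (Finset.sum_congr rfl fun l _ => ?_) this
    change g l * (y l : Matrix (Fin 3) (Fin 3) F) s t * c l r = _
    ring) i
  exact (mul_eq_zero.1 this).resolve_left hgi

set_option maxHeartbeats 1000000 in
/-- A solvable overgroup of the Singer group normalises the field. -/
theorem solvablePiece {F : Type*} [Field F] [Fintype F] : SolvablePiece (F := F) := by
  intro K hK M hS hM hsolv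
  obtain ⟨k, hk, hkns⟩ := exists_nonscalar hK
  have hkM : k ∈ M := hS hk
  classical
  obtain ⟨n, hn⟩ := hsolv.solvable
  set D : ℕ → Subgroup (GL (Fin 3) F) := fun i => (derivedSeries M i).map M.subtype with hD
  have hex : ∃ i, D i ≤ scalG := ⟨n, by rw [hD]; simp [hn]⟩
  obtain ⟨m, hm⟩ : ∃ m, Nat.find hex = m + 1 := Nat.exists_eq_succ_of_ne_zero fun h => hkns (by
    have := Nat.find_spec hex
    rw [h, hD] at this
    exact this ⟨⟨k, hkM⟩, by simp, rfl⟩)
  set R := D m with hR
  have hRns : ¬ R ≤ scalG := Nat.find_min hex (by omega)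
  have hsucc : D (m + 1) ≤ scalG := hm ▸ Nat.find_spec hex
  have hnorm : ∀ g ∈ M, ∀ x ∈ R, g * x * g⁻¹ ∈ R := by
    rintro g hg _ ⟨x, hx, rfl⟩
    exact ⟨⟨g, hg⟩ * x * ⟨g, hg⟩⁻¹, (derivedSeries_normal M m).conj_mem x hx _, rfl⟩
  have hRM : R ≤ M := Subgroup.map_subtype_le _
  have hRR : ∀ x ∈ R, ∀ y ∈ R, x * y * x⁻¹ * y⁻¹ ∈ scalG := by
    intro x hx y hy
    refine hsucc ?_
    have h := Subgroup.commutator_mem_commutator hx hy
    rw [hR, hD, ← Subgroup.map_commutator, ← derivedSeries_succ] at h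
    exact h
  by_cases hZ : ∃ a ∈ R, a ∉ scalG ∧ ∀ y ∈ R, Commute a y
  · obtain ⟨a, ha, hans, hac⟩ := hZ
    refine le_norm_of_comm hK hk hkM hkns hans fun g hg h hh => ?_
    have h1 := hac _ (hnorm (g⁻¹ * h) (M.mul_mem (M.inv_mem hg) hh) a ha)
    have h2 := Commute.map h1 (MulAut.conj g).toMonoidHom
    simpa [mul_assoc] using h2
  exfalso
  push Not at hZ
  have hZ' : ∀ x ∈ R, (∀ y ∈ R, Commute x y) → x ∈ scalG := fun x hx hc => by
    by_contra h
    obtain ⟨y, hy, hxy⟩ := hZ x hx h
    exact hxy (hc y hy)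
  have hdetR : ∀ x ∈ R, (x : Matrix (Fin 3) (Fin 3) F).det = 1 := fun x hx => det_of_sl (hM (hRM hx))
  have hcube : ∀ x ∈ R, x ^ 3 ∈ scalG := fun x hx => by
    refine hZ' _ (R.pow_mem hx 3) fun y hy => ?_
    obtain ⟨z, hz, hzeq⟩ : ∃ z ∈ scalG, z = y * x * y⁻¹ * x⁻¹ := ⟨_, hRR y hy x hx, rfl⟩
    have hz1 : z ^ 3 = 1 := by
      refine scalG_cube hz ?_
      rw [hzeq]
      exact hdetR _ (R.mul_mem (R.mul_mem (R.mul_mem hy hx) (R.inv_mem hy)) (R.inv_mem hx))
    have hconj : y * x ^ 3 * y⁻¹ = x ^ 3 := by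
      rw [← conj_pow, show y * x * y⁻¹ = z * x by rw [hzeq]; group, (scalG_comm hz x).mul_pow, hz1, one_mul]
    exact (mul_inv_eq_iff_eq_mul.1 hconj).symm
  -- every element of `R` lies in the field
  have hK' : ∀ x ∈ R, (x : Matrix (Fin 3) (Fin 3) F) ∈ K := by
    intro x hx
    by_cases hxs : x ∈ scalG
    · obtain ⟨c, hc⟩ := hxs
      rw [hc]; exact hK.scalar_mem c
    set y : ℕ → GL (Fin 3) F := fun i => k ^ i * x * (k ^ i)⁻¹ with hy
    have hyR : ∀ i, y i ∈ R := fun i => hnorm _ (M.pow_mem hkM i) x hx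
    have hys : ∀ i, y i ∉ scalG := fun i h => hxs (by
      have e : x = y i := by
        have := scalG_comm h (k ^ i)
        calc x = (k ^ i)⁻¹ * (y i * k ^ i) := by simp only [hy]; group
          _ = (k ^ i)⁻¹ * (k ^ i * y i) := by rw [this.eq]
          _ = y i := by group
      rw [e]; exact h)
    obtain ⟨i, l, hil, hrel⟩ : ∃ i l : Fin 5, (i : ℕ) < l ∧
        ((y i)⁻¹ * y l ∈ scalG ∨ y i * y l ∈ scalG) := by
      by_contra hno
      push Not at hno
      have hswap : ∀ a b : GL (Fin 3) F, a * b ∈ scalG → b * a ∈ scalG := fun a b h => by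
        rwa [show b * a = a * b by
          calc b * a = a⁻¹ * ((a * b) * a) := by group
            _ = a⁻¹ * (a * (a * b)) := by rw [(scalG_comm h a).eq]
            _ = a * b := by group]
      have hno' : ∀ i l : Fin 5, i ≠ l → (y i)⁻¹ * y l ∉ scalG ∧ y i * y l ∉ scalG := by
        intro i l hne
        rcases lt_or_gt_of_ne (Fin.val_ne_of_ne hne) with h | h
        · exact hno i l h
        · refine ⟨fun h' => (hno l i h).1 ?_, fun h' => (hno l i h).2 (hswap _ _ h')⟩
          have := scalG.inv_mem h'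
          rwa [_root_.mul_inv_rev, inv_inv] at this
      let z : Fin 5 ⊕ Fin 5 → GL (Fin 3) F := Sum.elim (fun i => y i) fun i => (y i)⁻¹
      have hself : ∀ i : ℕ, y i * y i ∉ scalG := fun i h => hys i (by
        have := scalG.mul_mem (hcube _ (hyR i)) (scalG.inv_mem h)
        rwa [show y i ^ 3 * (y i * y i)⁻¹ = y i by group] at this)
      have hli := indep_classes hRR hZ' z (fun a => by
        rcases a with i | i
        exacts [hyR i, R.inv_mem (hyR i)]) (fun a b hab h => by
        rcases a with i | i <;> rcases b with l | l <;> simp only [z, Sum.elim_inl, Sum.elim_inr, inv_inv] at h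
        · exact (hno' i l fun e => hab (by rw [e])).1 h
        · have h' := scalG.inv_mem h
          rw [_root_.mul_inv_rev, inv_inv, inv_inv] at h'
          by_cases e : l = i
          · subst e; exact hself l h'
          · exact (hno' l i e).2 h'
        · by_cases e : i = l
          · subst e; exact hself i h
          · exact (hno' i l e).2 h
        · have e : l ≠ i := fun e => hab (by rw [e])
          have h' := scalG.inv_mem (hswap _ _ h)
          rw [_root_.mul_inv_rev, inv_inv] at h'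
          exact (hno' i l e.symm).1 h')
      have := hli.fintype_card_le_finrank
      rw [Module.finrank_matrix, Module.finrank_self, Fintype.card_sum, Fintype.card_fin, Fintype.card_fin] at this
      omega
    set d := (l : ℕ) - i with hd
    have hyl : y l = k ^ (i : ℕ) * (k ^ d * x * (k ^ d)⁻¹) * (k ^ (i : ℕ))⁻¹ := by
      simp only [hy]
      rw [show (l : ℕ) = i + d by omega, pow_add]
      group
    set s := k ^ d * x * (k ^ d)⁻¹ with hs
    have hzz : ∃ z ∈ scalG, k ^ (2 * d) * x * (k ^ (2 * d))⁻¹ = x * z := by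
      have h2d : k ^ (2 * d) * x * (k ^ (2 * d))⁻¹ = k ^ d * s * (k ^ d)⁻¹ := by
        rw [hs, two_mul, pow_add]; group
      rcases hrel with h | h
      · obtain ⟨z, hz, hzs⟩ : ∃ z ∈ scalG, s = x * z := by
          refine ⟨x⁻¹ * s, ?_, by group⟩
          have e : (y i)⁻¹ * y l = k ^ (i : ℕ) * (x⁻¹ * s) * (k ^ (i : ℕ))⁻¹ := by
            rw [hyl]; simp only [hy]; group
          rwa [show x⁻¹ * s = (y i)⁻¹ * y l by
            calc x⁻¹ * s = (k ^ (i : ℕ))⁻¹ * (((y i)⁻¹ * y l) * k ^ (i : ℕ)) := by rw [e]; group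
              _ = (y i)⁻¹ * y l := by rw [(scalG_comm h _).eq]; group]
        refine ⟨z * z, scalG.mul_mem hz hz, ?_⟩
        rw [h2d, hzs]
        calc k ^ d * (x * z) * (k ^ d)⁻¹ = k ^ d * x * (z * (k ^ d)⁻¹) := by group
          _ = s * z := by rw [(scalG_comm hz _).eq, hs]; group
          _ = _ := by rw [hzs, mul_assoc]
      · obtain ⟨z, hz, hzs⟩ : ∃ z ∈ scalG, s = x⁻¹ * z := by
          refine ⟨x * s, ?_, by group⟩
          have e : y i * y l = k ^ (i : ℕ) * (x * s) * (k ^ (i : ℕ))⁻¹ := by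
            rw [hyl]; simp only [hy]; group
          rwa [show x * s = y i * y l by
            calc x * s = (k ^ (i : ℕ))⁻¹ * ((y i * y l) * k ^ (i : ℕ)) := by rw [e]; group
              _ = y i * y l := by rw [(scalG_comm h _).eq]; group]
        refine ⟨1, scalG.one_mem, ?_⟩
        rw [h2d, mul_one]
        calc k ^ d * s * (k ^ d)⁻¹ = k ^ d * x⁻¹ * (z * (k ^ d)⁻¹) := by rw [hzs]; group
          _ = s⁻¹ * z := by rw [(scalG_comm hz _).eq, hs]; group
          _ = _ := by rw [hzs, _root_.mul_inv_rev, inv_inv, mul_assoc, ← (scalG_comm hz x).eq]; group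
    obtain ⟨z, hz, hzeq⟩ := hzz
    have hz3 : z ^ 3 = 1 := scalG_cube hz (by
      have := congrArg (fun g : GL (Fin 3) F => (g : Matrix (Fin 3) (Fin 3) F).det) hzeq
      simp only [Units.val_mul, det_mul] at this
      rw [det_of_sl (hM (M.pow_mem hkM _)), det_of_sl (hM (M.inv_mem (M.pow_mem hkM _))), hdetR x hx, one_mul,
        one_mul, one_mul] at this
      exact this.symm)
    set t := k ^ (2 * d) with ht
    have hthree : t ^ 3 * x * (t ^ 3)⁻¹ = x := by
      have hstep : ∀ w ∈ scalG, t * (x * w) * t⁻¹ = x * (z * w) := fun w hw => by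
        calc t * (x * w) * t⁻¹ = t * x * (w * t⁻¹) := by group
          _ = (t * x * t⁻¹) * w := by rw [(scalG_comm hw _).eq]; group
          _ = _ := by rw [hzeq, mul_assoc]
      calc t ^ 3 * x * (t ^ 3)⁻¹ = t * (t * (t * x * t⁻¹) * t⁻¹) * t⁻¹ := by simp [pow_succ, mul_assoc]
        _ = x * z ^ 3 := by rw [hzeq, hstep z hz, hstep _ (scalG.mul_mem hz hz), pow_succ' z 2, sq]
        _ = x := by rw [hz3, mul_one]
    refine mem_of_fixed hK hk hkns (j := 2 * d * 3) ?_ ?_
    · have hd' : d ∈ ({1, 2, 3, 4} : Finset ℕ) := by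
        have := l.isLt; simp; omega
      simp at hd'
      rcases hd' with h | h | h | h <;> rw [h] <;> norm_num
    · rw [cj, pow_mul, ← Units.val_mul, ← Units.val_mul, ← ht, hthree]
  obtain ⟨x, hx, hxs⟩ := SetLike.not_le_iff_exists.1 hRns
  exact hxs (hZ' x hx fun y hy => Units.ext (hK.field.comm _ (hK' x hx) _ (hK' y hy)))

end Cfsg.Agent.H99.SingerSolvable
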