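import Cfsg.Agent.H99.Aschbacher.OddOrthLists
import Cfsg.Agent.H5.StabNondegGL
import Cfsg.Agent.H98.OrthSubMain

/-!
Geometric subgroups of the odd-dimensional orthogonal group that are maximal from small dimensions on.
-/

set_option autoImplicit false

namespace Cfsg.Agent.H99.OddMax

open Cfsg.Geo Cfsg.Agent.H99.Asch

variable {F : Type*} [Field F] [Fintype F] {m : ℕ}

theorem singular (h2 : (2 : F) ≠ 0) (hm : 2 ≤ m) (W : Submodule F (OddIdx m → F)) (hW0 : W ≠ ⊥)
    (hW : IsTotallySingularQuad (Cfsg.quadFormOdd m F) W) :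
    IsMaximalIn (omegaGL (Cfsg.quadFormOdd m F)) (subspaceStabilizer W ⊓ omegaGL (Cfsg.quadFormOdd m F)) := by
  classical
  refine H5.isMaximalIn_stab_singular (H5.qOdd m F) (H5.coe_qOdd m) (H5.qOdd_nondegenerate m h2)
    (by simp; omega) W hW0 hW fun U _ _ _ hU => ?_
  simp at hU
  omega

theorem nondegenerate (h2 : (2 : F) ≠ 0) (hm : 5 ≤ m) (W : Submodule F (OddIdx m → F)) (hW0 : W ≠ ⊥)
    (hev : Even (Module.finrank F W)) (hW : IsNondegenerateOn (QuadraticMap.polar (Cfsg.quadFormOdd m F)) W)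
    (hex : ¬ (Fintype.card F = 3 ∧ Module.finrank F W = 2 ∧ IsPlusTypeOn (Cfsg.quadFormOdd m F) W)) :
    IsMaximalIn (omegaGL (Cfsg.quadFormOdd m F)) (subspaceStabilizer W ⊓ omegaGL (Cfsg.quadFormOdd m F)) := by
  classical
  have hQ := H5.qOdd_nondegenerate (F := F) m h2
  have hf := H5.coe_qOdd (F := F) m
  have hWU := H5.inf_perp_of_isNondegenerateOn (H5.qOdd m F) hf hW
  have hr : Fintype.card (Unit ⊕ (Fin m ⊕ Fin m)) = 2 * m + 1 := by simp; omega
  have hsum := H5.finrank_perp_add hQ W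
  rw [Module.finrank_fintype_fun_eq_card, hr] at hsum
  obtain ⟨j, hj⟩ := hev
  refine H5.isMaximalIn_stab_nondeg' (H5.qOdd m F) hf hQ (Or.inr ⟨h2, by omega⟩) W hW0 (fun h => ?_) hWU
    (fun h => by rw [hr] at h; omega) ?_
  · rw [h, finrank_top, Module.finrank_fintype_fun_eq_card, hr] at hj
    omega
  · rintro P hP ⟨hq, hP2, x, hx, hx0, hqx⟩
    rcases hP with rfl | rfl
    · refine hex ⟨?_, hP2, ?_⟩
      · rw [Nat.card_eq_fintype_card] at hq
        have hlt := Fintype.one_lt_card (α := F)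
        have hne : Fintype.card F ≠ 2 := fun h2c => h2 (by
          have : CharP F 2 := charP_of_card_eq_prime h2c
          exact CharTwo.two_eq_zero)
        omega
      · rw [← hf]
        exact H5.isPlusTypeOn_plane (H5.qOdd m F) hP2 hx hx0 hqx
    · have e : 2 + (j + j) = 2 * m + 1 := (congrArg₂ (· + ·) hP2 hj).symm.trans hsum
      omega

theorem subfield (h2 : (2 : F) ≠ 0) (hm : 5 ≤ m) (F₀ : Subfield F) {r : ℕ} (hr : r.Prime)
    (hcard : Fintype.card F = Nat.card F₀ ^ r) (P : GL (OddIdx m) F)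
    (hP : IsQuadFormRationalStructure (Cfsg.quadFormOdd m F) F₀ P) :
    IsMaximalIn (omegaGL (Cfsg.quadFormOdd m F)) (subfieldSubgroup F₀ P ⊓ omegaGL (Cfsg.quadFormOdd m F)) := by
  classical
  exact H98.OSub.subfield_maximal (H5.qOdd m F) (H5.coe_qOdd m)
    (H5.qOdd_nondegenerate m h2) (by simp; omega) F₀ hr
    (by rw [Nat.card_eq_fintype_card]; exact hcard) P one_ne_zero (fun u hu => by rw [one_mul]; exact hP u hu)

end Cfsg.Agent.H99.OddMax
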